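import Mathlib
import Cfsg.Prelude.Def_LocalEven
import Cfsg.Prelude.Def_ConjugacyFunctors
import Cfsg.Agent.Lib.Cores
import Cfsg.Agent.Transfer.NormalPComplement
import Cfsg.Agent.Transfer.FrobeniusFusion
set_option linter.all false

/-!
# Control of strong fusion: normal p-complements and transport

`hasNormalPComplement_of_controls`: if `U` controls strong fusion in `G` and `N_G(U)` has a normal `p`-complement, so
has `G`. `controlsStrongFusion_congr`: transport along an isomorphism.
-/

set_option autoImplicit false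

universe u

namespace Cfsg.Agent.H37.Control

open Cfsg Subgroup
open scoped commutatorElement

/-- If `U` controls strong fusion (with respect to the Sylow subgroup `T ≥ U`) then `T` normalizes `U`. -/
theorem le_normalizer_of_controls {G : Type*} [Group G] {T U : Subgroup G} (hUT : U ≤ T)
    (h : ∀ A : Set G, A ⊆ T → ControlsStrongFusionOf (normalizer (U : Set G)) T A) :
    T ≤ normalizer (U : Set G) := by
  have key : ∀ t ∈ T, ∀ u ∈ U, t * u * t⁻¹ ∈ U := by
    intro t ht u hu
    obtain ⟨x, hx, hxa⟩ := (h (T : Set G) le_rfl).2 t (by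
      rintro _ ⟨a, ha, rfl⟩
      exact T.mul_mem (T.mul_mem ht ha) (T.inv_mem ht))
    rw [hxa u (hUT hu)]
    exact (mem_normalizer_iff.mp hx u).mp hu
  intro t ht
  rw [mem_normalizer_iff]
  intro u
  refine ⟨key t ht u, fun hu => ?_⟩
  have := key t⁻¹ (T.inv_mem ht) _ hu
  have h2 : t⁻¹ * (t * u * t⁻¹) * t⁻¹⁻¹ = u := by group
  rwa [h2] at this

/-- In a group with a normal `p`-complement a Sylow `p`-subgroup controls fusion of its elements. -/
theorem exists_mem_sylow_conj {N : Type*} [Group N] [Finite N] {p : ℕ} [Fact p.Prime]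
    (h : HasNormalPComplement p N) (P : Sylow p N) {x y n : N} (hx : x ∈ (P : Subgroup N))
    (hy : y ∈ (P : Subgroup N)) (hn : n * x * n⁻¹ = y) : ∃ t ∈ (P : Subgroup N), t * x * t⁻¹ = y := by
  obtain ⟨K, hK, hKc⟩ := Transfer.NormalPComplement.exists_of_sylow h P
  obtain ⟨⟨k, t⟩, hkt⟩ := hKc.2 n
  simp only at hkt
  refine ⟨t, t.2, ?_⟩
  have hz : (t : N) * x * (t : N)⁻¹ ∈ (P : Subgroup N) := mul_mem (mul_mem t.2 hx) (inv_mem t.2)
  have h1 : y * ((t : N) * x * (t : N)⁻¹)⁻¹ ∈ K := by
    have h2 : y * ((t : N) * x * (t : N)⁻¹)⁻¹ =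
        (k : N) * (((t : N) * x * (t : N)⁻¹) * (k : N)⁻¹ * ((t : N) * x * (t : N)⁻¹)⁻¹) := by
      rw [← hn, ← hkt]; group
    rw [h2]
    exact mul_mem k.2 (hK.conj_mem _ (inv_mem k.2) _)
  have h2 : y * ((t : N) * x * (t : N)⁻¹)⁻¹ ∈ K ⊓ (P : Subgroup N) :=
    mem_inf.mpr ⟨h1, mul_mem hy (inv_mem hz)⟩
  rw [hKc.disjoint.eq_bot, mem_bot, mul_inv_eq_one] at h2
  exact h2.symm

/-- **If `U` controls strong fusion in `G` and `N_G(U)` has a normal `p`-complement, then so has `G`.** -/
theorem hasNormalPComplement_of_controls {G : Type*} [Group G] [Finite G] {p : ℕ} [Fact p.Prime]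
    {U : Subgroup G} (hU : ControlsStrongFusion p U)
    (hN : HasNormalPComplement p ↥(normalizer (U : Set G))) : HasNormalPComplement p G := by
  obtain ⟨T, hUT, hT⟩ := hU
  have hTN := le_normalizer_of_controls hUT hT
  refine Transfer.FrobeniusFusion.hasNormalPComplement_of_controls_fusion T ?_
  rintro x hx y hy ⟨g, hg⟩
  obtain ⟨n, hn, hna⟩ := (hT {x} (by rintro a rfl; exact hx)).2 g (by
    rintro _ ⟨a, ha, rfl⟩
    rw [Set.mem_singleton_iff] at ha
    subst ha
    change g * a * g⁻¹ ∈ (T : Subgroup G)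
    rw [hg]; exact hy)
  have h1 := hna x rfl
  obtain ⟨t, ht, htx⟩ := exists_mem_sylow_conj hN (T.subtype hTN)
    (x := ⟨x, hTN hx⟩) (y := ⟨y, hTN hy⟩) (n := ⟨n, hn⟩) hx hy (Subtype.ext (by
      change n * x * n⁻¹ = y
      rw [← h1, hg]))
  exact ⟨t, ht, congrArg Subtype.val htx⟩

/-- Transport of the control of strong fusion along an isomorphism. -/
theorem controlsStrongFusion_congr {G G' : Type*} [Group G] [Group G'] {p : ℕ} (e : G ≃* G')
    {U : Subgroup G} (hU : ControlsStrongFusion p U) : ControlsStrongFusion p (U.map e.toMonoidHom) := by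
  obtain ⟨T, hUT, hT⟩ := hU
  have hTr : (T : Subgroup G) ≤ e.symm.toMonoidHom.range := by
    rw [MonoidHom.range_eq_top.mpr e.symm.surjective]
    exact le_top
  have hcm : (T : Subgroup G).comap e.symm.toMonoidHom = (T : Subgroup G).map e.toMonoidHom := by
    ext y
    constructor
    · intro hy
      exact ⟨e.symm y, hy, e.apply_symm_apply y⟩
    · rintro ⟨x, hx, rfl⟩
      change e.symm (e x) ∈ (T : Subgroup G)
      rw [e.symm_apply_apply]; exact hx
  have hinj : Function.Injective e.symm.toMonoidHom := e.symm.injective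
  obtain ⟨T', hT'⟩ : ∃ T' : Sylow p G', (T' : Subgroup G') = (T : Subgroup G).map e.toMonoidHom :=
    ⟨T.comapOfInjective e.symm.toMonoidHom hinj hTr, by
      rw [Sylow.coe_comapOfInjective, hcm]⟩
  have hmem : ∀ x : G, e x ∈ (T' : Subgroup G') ↔ x ∈ (T : Subgroup G) := by
    intro x
    rw [hT']
    constructor
    · rintro ⟨y, hy, hyx⟩
      have : y = x := e.injective hyx
      rwa [← this]
    · intro hx
      exact ⟨x, hx, rfl⟩
  refine ⟨T', ?_, ?_⟩
  · rw [hT']; exact Subgroup.map_mono hUT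
  · intro A hA
    refine ⟨hA, fun g' hg' => ?_⟩
    obtain ⟨g, rfl⟩ := e.surjective g'
    obtain ⟨x, hx, hxa⟩ := (hT (e ⁻¹' A) (by
      intro a ha
      exact (hmem a).mp (hA ha))).2 g (by
        rintro _ ⟨a, ha, rfl⟩
        have h1 := hg' ⟨e a, ha, rfl⟩
        simp only at h1
        rw [← map_inv, ← map_mul, ← map_mul] at h1
        exact (hmem _).mp h1)
    refine ⟨e x, ?_, ?_⟩
    · have h1 := Subgroup.map_equiv_normalizer_eq U e
      have h2 : e x ∈ (normalizer (U : Set G)).map e.toMonoidHom := ⟨x, hx, rfl⟩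
      rw [h1] at h2
      exact h2
    · intro a ha
      obtain ⟨b, rfl⟩ := e.surjective a
      have h1 := hxa b ha
      rw [← map_inv, ← map_inv, ← map_mul, ← map_mul, ← map_mul, ← map_mul, h1]

end Cfsg.Agent.H37.Control
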